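import Cfsg.Agent.Lib.Spor.J4A.Defs

set_option autoImplicit false
set_option maxRecDepth 100000
set_option Elab.async false
set_option exponentiation.threshold 100000

namespace Cfsg.Agent.Spor.J4A
open Cfsg.Agent.PG

theorem zclH_3_8 : chkOn A 15 8 7 (((((zclH_l).drop 2).drop 2).drop 2).take 2) = true := by decide +kernel

theorem zclH_4_0 : chkOn A 15 0 8 ((((((zclH_l).drop 2).drop 2).drop 2).drop 2).take 2) = true := by decide +kernel

theorem zclH_4_8 : chkOn A 15 8 7 ((((((zclH_l).drop 2).drop 2).drop 2).drop 2).take 2) = true := by decide +kernel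

theorem zclH_5_0 : chkOn A 15 0 8 (((((((zclH_l).drop 2).drop 2).drop 2).drop 2).drop 2).take 2) = true := by decide +kernel

theorem zclH_5_8 : chkOn A 15 8 7 (((((((zclH_l).drop 2).drop 2).drop 2).drop 2).drop 2).take 2) = true := by decide +kernel

theorem zclH_6_0 : chkOn A 15 0 8 (((((((zclH_l).drop 2).drop 2).drop 2).drop 2).drop 2).drop 2) = true := by decide +kernel

theorem zclH_6_8 : chkOn A 15 8 7 (((((((zclH_l).drop 2).drop 2).drop 2).drop 2).drop 2).drop 2) = true := by decide +kernel

theorem ccmz_0_0 : chkOn A 15 0 8 ((ccmz_l).take 8) = true := by decide +kernel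

theorem ccmz_0_8 : chkOn A 15 8 7 ((ccmz_l).take 8) = true := by decide +kernel

theorem ccmz_1_0 : chkOn A 15 0 8 ((ccmz_l).drop 8) = true := by decide +kernel

theorem ccmz_1_8 : chkOn A 15 8 7 ((ccmz_l).drop 8) = true := by decide +kernel

theorem coz : orbCardB A 12 35 15180 5 1771 = true := by decide +kernel

theorem clbz : lbQ A 12 cgz clvz [15180] = true := by decide +kernel

theorem csubz : subOK A 35 15180 5 5 cgz (cgsz.map Prod.fst) = true := by decide +kernel

theorem cncz : allL cgsz (ncB A czz) = true := by decide +kernel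

theorem cfix : allL (List.range 15) (fixPl A 15 czz (korb A 35 15180 5)) = true := by decide +kernel


end Cfsg.Agent.Spor.J4A
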